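import Cfsg.Agent.H725.Cov.SevTool
import Cfsg.Agent.H49.SPSimple
import Cfsg.Agent.SignalizersComponents.CoprimeGen

/-!
# S2499, the Held group: the local situation (helper725)

`KSit K`: the situation in a proper subgroup `K` of order divisible by `7 ^ 3`; then `K` has a simple normal subgroup
with trivial centralizer and order divisible by 7.
-/

set_option autoImplicit false

namespace Cfsg.Agent.H725.CovHe

open Cfsg Subgroup
open Cfsg.Agent.SignalizersComponents.Components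

instance f7 : Fact (Nat.Prime 7) := ⟨by norm_num⟩

/-- the situation -/
structure KSit (K : Type*) [Group K] : Prop where
  d343 : 343 ∣ Nat.card K
  nd : ¬ 7 ^ 4 ∣ Nat.card K
  na : NoAb 7 K
  cent : ∀ x : K, orderOf x = 7 → Nat.card (centralizer ({x} : Set K)) ∣ 1029 ∨
    Nat.card (centralizer ({x} : Set K)) ∣ 1176
  elt : ∃ b : K, orderOf b = 7 ∧ Nat.card (centralizer ({b} : Set K)) ∣ 196
  elt' : ∃ a f : K, orderOf a = 7 ∧ orderOf f = 4 ∧ a * f = f * a

namespace KSit

variable {K : Type*} [Group K] [Finite K]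

theorem card_sylow (S : KSit K) (P : Sylow 7 K) : Nat.card P = 7 ^ 3 := by
  obtain ⟨k, hk⟩ := (IsPGroup.iff_card).1 P.isPGroup'
  have h1 : 7 ^ 3 ∣ Nat.card P := P.pow_dvd_card_of_pow_dvd_card (by simpa using S.d343)
  have h2 : 7 ^ k ∣ Nat.card K := hk ▸ Subgroup.card_subgroup_dvd_card _
  have h3 : k < 4 := by
    by_contra h
    exact S.nd ((pow_dvd_pow 7 (by omega : 4 ≤ k)).trans h2)
  rw [hk] at h1 ⊢
  have h4 : 3 ≤ k := (Nat.pow_dvd_pow_iff_le_right (by norm_num)).1 h1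
  have h5 : k = 3 := by omega
  rw [h5]

/-- an element of order 7 centralised by a Sylow subgroup -/
theorem cent_of_central (S : KSit K) {P : Subgroup K} (hP : Nat.card P = 7 ^ 3) {w : K} (hw : orderOf w = 7)
    (hwP : ∀ g ∈ P, g * w = w * g) : Nat.card (centralizer ({w} : Set K)) ∣ 1029 := by
  have h1 : P ≤ centralizer ({w} : Set K) := fun g hg => mem_centralizer_singleton_iff.2 (hwP g hg)
  have h2 : 343 ∣ Nat.card (centralizer ({w} : Set K)) := by
    have := Subgroup.card_dvd_of_le h1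
    rw [hP] at this
    simpa using this
  rcases S.cent w hw with h | h
  · exact h
  · exact absurd (h2.trans h) (by norm_num)

/-- **no normal 7'-subgroup** -/
theorem prime_core (S : KSit K) : pPrimeCore 7 K = ⊥ := by
  obtain ⟨b, hb, hbc⟩ := S.elt
  obtain ⟨M, hM⟩ : ∃ M, M = pPrimeCore 7 K := ⟨_, rfl⟩
  rw [← hM]
  have hMn : M.Normal := hM ▸ Lib.Cores.pPrimeCore_normal 7
  have hMc : (Nat.card M).Coprime 7 := hM ▸ Lib.Cores.pPrimeCore_coprime 7
  -- the Sylow subgroup
  have hbp : IsPGroup 7 (zpowers b) := IsPGroup.of_card (n := 1) (by rw [Nat.card_zpowers, hb, pow_one])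
  obtain ⟨P, hbP'⟩ := hbp.exists_le_sylow
  have hbP : b ∈ (P : Subgroup K) := hbP' (mem_zpowers b)
  have hP := S.card_sylow P
  obtain ⟨w, hwP, hw, hwc, hPc, -⟩ := exists_center S.na hP
  have hwcard := S.cent_of_central hP hw hwc
  have hbn : ¬ ∀ g ∈ (P : Subgroup K), g * b = b * g := by
    intro h
    have h1 : (P : Subgroup K) ≤ centralizer ({b} : Set K) := fun g hg => mem_centralizer_singleton_iff.2 (h g hg)
    have h2 := (Subgroup.card_dvd_of_le h1).trans hbc
    rw [hP] at h2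
    norm_num at h2
  have hbw : b * w = w * b := hwc b hbP
  have hwb : b ∉ zpowers w := by
    rintro ⟨i, hi⟩
    apply hbn
    intro g hg
    have h1 : w ^ i = b := hi
    rw [← h1]
    exact ((show Commute g w from hwc g hg).zpow_right i).eq
  -- the orders
  have hcop : ∀ x : K, (Nat.card ↥(M ⊓ centralizer ({x} : Set K))).Coprime 7 := fun x =>
    hMc.coprime_dvd_left (Subgroup.card_dvd_of_le inf_le_left)
  have h3 : Nat.card ↥(M ⊓ centralizer ({w} : Set K)) ∣ 3 := by
    have h1 : Nat.card ↥(M ⊓ centralizer ({w} : Set K)) ∣ 7 ^ 3 * 3 :=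
      (Subgroup.card_dvd_of_le inf_le_right).trans (hwcard.trans (by norm_num))
    exact ((hcop w).pow_right 3).dvd_of_dvd_mul_left h1
  have h4 : Nat.card ↥(M ⊓ centralizer ({b} : Set K)) ∣ 4 := by
    have h1 : Nat.card ↥(M ⊓ centralizer ({b} : Set K)) ∣ 7 ^ 2 * 4 :=
      (Subgroup.card_dvd_of_le inf_le_right).trans (hbc.trans (by norm_num))
    exact ((hcop b).pow_right 2).dvd_of_dvd_mul_left h1
  -- they are equal
  have hle : ∀ {x y : K}, orderOf y = 7 → x * y = y * x → Nat.card ↥(M ⊓ centralizer ({x} : Set K)) < 7 →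
      M ⊓ centralizer ({x} : Set K) ≤ M ⊓ centralizer ({y} : Set K) := by
    intro x y hy hxy hlt r hr
    refine ⟨hr.1, mem_centralizer_singleton_iff.2 ?_⟩
    refine (cent_small hy hlt (fun r hr => ?_) r hr).symm
    refine ⟨hMn.conj_mem r hr.1 y, mem_centralizer_singleton_iff.2 ?_⟩
    have h5 : Commute y x := hxy.symm
    have h6 : Commute r x := mem_centralizer_singleton_iff.1 hr.2
    exact ((h5.mul_left h6).mul_left h5.inv_left).eq
  have heq : M ⊓ centralizer ({w} : Set K) = M ⊓ centralizer ({b} : Set K) := by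
    apply le_antisymm
    · exact hle hb hbw.symm (lt_of_le_of_lt (Nat.le_of_dvd (by norm_num) h3) (by norm_num))
    · exact hle hw hbw (lt_of_le_of_lt (Nat.le_of_dvd (by norm_num) h4) (by norm_num))
  have hw1 : M ⊓ centralizer ({w} : Set K) = ⊥ := by
    rw [← Subgroup.card_eq_one]
    rw [← heq] at h4
    have := Nat.dvd_gcd h3 h4
    norm_num at this
    exact this
  have hb1 : M ⊓ centralizer ({b} : Set K) = ⊥ := heq ▸ hw1
  -- the elementary abelian group
  obtain ⟨A, hA1, hA2, hA3⟩ := pair hw hb hbw.symm hwb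
  have hAe : IsElementaryAbelian 7 A := by
    refine ⟨⟨⟨fun x y => Subtype.ext (hA1 x x.2 y y.2)⟩⟩, ?_⟩
    intro x hx
    obtain ⟨i, j, rfl⟩ := (hA3 x).1 hx
    have h5 : Commute (w ^ i) (b ^ j) := (show Commute w b from hbw.symm).zpow_zpow i j
    rw [h5.mul_pow, ← zpow_natCast, ← zpow_mul, mul_comm, zpow_mul, zpow_natCast, ← hw, pow_orderOf_eq_one, one_zpow,
      one_mul, ← zpow_natCast, ← zpow_mul, mul_comm, zpow_mul, zpow_natCast, hw, ← hb, pow_orderOf_eq_one, one_zpow]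
  have h7M : ¬ 7 ∣ Nat.card M := fun h => by
    have := Nat.Coprime.eq_one_of_dvd hMc.symm h
    norm_num at this
  have hgen := Cfsg.Agent.SignalizersComponents.CoprimeGen.le_iSup_centralizer_ne_one (p := 7) (A := A) (Z := M) hAe
    (by rw [hA2]) h7M (fun a _ => by rw [normalizer_eq_top]; exact mem_top a)
  rw [eq_bot_iff]
  refine hgen.trans (iSup_le ?_)
  rintro ⟨x, hx, hx1⟩
  rintro m ⟨hmM, hm⟩
  have hmx : m * x = x * m := mem_centralizer_singleton_iff.1 hm
  obtain ⟨j, i, rfl⟩ := (hA3 x).1 hx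
  rw [mem_bot]
  by_cases hi : (7 : ℤ) ∣ i
  · have h5 : b ^ i = 1 := (orderOf_dvd_iff_zpow_eq_one (x := b)).1 (by rw [hb]; exact hi)
    rw [h5, mul_one] at hmx hx1
    have hj : ¬ ((7 : ℕ) : ℤ) ∣ j := by
      intro h
      exact hx1 ((orderOf_dvd_iff_zpow_eq_one (x := w)).1 (by rw [hw]; exact h))
    have h6 : m ∈ M ⊓ centralizer ({w} : Set K) := ⟨hmM, mem_centralizer_singleton_iff.2 (comm_of_zpow hw hj hmx)⟩
    rwa [hw1, mem_bot] at h6
  · obtain ⟨g, hg, hgx⟩ := exists_conj_of (p := 7) hw hwc hPc hbP hbn (i := i) (by exact_mod_cast hi) j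
    have h5 : w ^ j * b ^ i = b ^ i * w ^ j := ((show Commute w b from hbw.symm).zpow_zpow j i).eq
    rw [h5, ← hgx] at hmx
    have h6 : g⁻¹ * m * g * b ^ i = b ^ i * (g⁻¹ * m * g) := by
      calc g⁻¹ * m * g * b ^ i = g⁻¹ * (m * (g * b ^ i * g⁻¹)) * g := by group
        _ = g⁻¹ * (g * b ^ i * g⁻¹ * m) * g := by rw [hmx]
        _ = _ := by group
    have h7 : g⁻¹ * m * g ∈ M ⊓ centralizer ({b} : Set K) := by
      refine ⟨?_, mem_centralizer_singleton_iff.2 (comm_of_zpow hb (by exact_mod_cast hi) h6)⟩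
      have := hMn.conj_mem m hmM g⁻¹
      rwa [inv_inv] at this
    rw [hb1, mem_bot] at h7
    calc m = g * (g⁻¹ * m * g) * g⁻¹ := by group
      _ = 1 := by rw [h7]; group

/-- **no normal 7-subgroup** -/
theorem p_core (S : KSit K) : pCore 7 K = ⊥ := by
  obtain ⟨a, f, ha, hf, haf⟩ := S.elt'
  obtain ⟨N, hN⟩ : ∃ N, N = pCore 7 K := ⟨_, rfl⟩
  rw [← hN]
  have hNn : N.Normal := hN ▸ Lib.Cores.pCore_normal 7
  have hNp : IsPGroup 7 N := hN ▸ Lib.Cores.pCore_isPGroup 7
  by_contra hne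
  -- `Z`
  obtain ⟨Z, hZ⟩ : ∃ Z, Z = N ⊓ centralizer (N : Set K) := ⟨_, rfl⟩
  have hcn : (centralizer (N : Set K)).Normal := Subgroup.normal_centralizer
  have hZn : Z.Normal := hZ ▸ Subgroup.normal_inf_normal N (centralizer (N : Set K))
  have hZN : Z ≤ N := hZ ▸ inf_le_left
  have hZp : IsPGroup 7 Z := hNp.to_le hZN
  have hZc : ∀ x ∈ Z, ∀ y ∈ Z, x * y = y * x := by
    intro x hx y hy
    rw [hZ] at hx hy
    exact (mem_centralizer_iff.1 hy.2 x hx.1)
  have h7 : ∀ {H : Subgroup K}, IsPGroup 7 H → H ≠ ⊥ → 7 ∣ Nat.card H := by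
    intro H hH h1
    obtain ⟨k, hk⟩ := (IsPGroup.iff_card).1 hH
    have h2 : k ≠ 0 := by
      rintro rfl
      exact h1 (Subgroup.card_eq_one.1 (by rw [hk, pow_zero]))
    rw [hk]
    exact dvd_pow_self 7 h2
  have hZ1 : Z ≠ ⊥ := by
    obtain ⟨z, hz, hz1, hzc⟩ := exists_fixed (p := 7) hNp (h7 hNp hne) (fun x hx z hz => N.mul_mem (N.mul_mem hx hz) (N.inv_mem hx))
    intro h
    have h1 : z ∈ Z := by
      rw [hZ]
      exact ⟨hz, mem_centralizer_iff.2 hzc⟩
    rw [h, mem_bot] at h1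
    exact hz1 h1
  -- a central element
  obtain ⟨P⟩ : Nonempty (Sylow 7 K) := inferInstance
  have hP := S.card_sylow P
  obtain ⟨z, hz, hz1, hzc⟩ := exists_fixed (p := 7) P.isPGroup' (h7 hZp hZ1) (fun x _ z hz => hZn.conj_mem z hz x)
  obtain ⟨n, hn⟩ := exists_pow_order hZp hz hz1
  obtain ⟨w, hwd⟩ : ∃ w, w = z ^ n := ⟨_, rfl⟩
  have hw : orderOf w = 7 := hwd ▸ hn
  have hwZ : w ∈ Z := hwd ▸ Z.pow_mem hz n
  have hwc : ∀ g ∈ (P : Subgroup K), g * w = w * g := fun g hg => by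
    rw [hwd]
    exact ((show Commute g z from hzc g hg).pow_right n).eq
  have hwcard := S.cent_of_central hP hw hwc
  -- the involution
  have hf4 : f ^ 4 = 1 := by rw [← hf, pow_orderOf_eq_one]
  have ht : orderOf (f ^ 2) = 2 := by rw [orderOf_pow_of_dvd (by norm_num) (by rw [hf]; norm_num), hf]
  have htw : f ^ 2 * w ≠ w * f ^ 2 := by
    intro h
    have h1 := Subgroup.orderOf_dvd_natCard _ (mem_centralizer_singleton_iff.2 h : f ^ 2 ∈ centralizer ({w} : Set K))
    rw [ht] at h1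
    exact absurd (h1.trans hwcard) (by norm_num)
  -- inverted elements
  let I : Subgroup K :=
    { carrier := {x | x ∈ Z ∧ f ^ 2 * x * (f ^ 2)⁻¹ = x⁻¹}
      one_mem' := ⟨Z.one_mem, by simp⟩
      mul_mem' := by
        rintro x y ⟨hx, hx'⟩ ⟨hy, hy'⟩
        refine ⟨Z.mul_mem hx hy, ?_⟩
        calc f ^ 2 * (x * y) * (f ^ 2)⁻¹ = (f ^ 2 * x * (f ^ 2)⁻¹) * (f ^ 2 * y * (f ^ 2)⁻¹) := by group
          _ = x⁻¹ * y⁻¹ := by rw [hx', hy']
          _ = (y * x)⁻¹ := by group
          _ = (x * y)⁻¹ := by rw [hZc x hx y hy]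
      inv_mem' := by
        rintro x ⟨hx, hx'⟩
        refine ⟨Z.inv_mem hx, ?_⟩
        calc f ^ 2 * x⁻¹ * (f ^ 2)⁻¹ = (f ^ 2 * x * (f ^ 2)⁻¹)⁻¹ := by group
          _ = x⁻¹⁻¹ := by rw [hx'] }
  have hI : ∀ {x : K}, x ∈ I ↔ x ∈ Z ∧ f ^ 2 * x * (f ^ 2)⁻¹ = x⁻¹ := Iff.rfl
  have hIZ : I ≤ Z := fun x hx => hx.1
  have hIp : IsPGroup 7 I := hZp.to_le hIZ
  have hI1 : I ≠ ⊥ := by
    intro h
    have h0 : f ^ 2 * w * (f ^ 2)⁻¹ ∈ Z := hZn.conj_mem w hwZ (f ^ 2)
    have h1 : w * (f ^ 2 * w * (f ^ 2)⁻¹)⁻¹ ∈ I := by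
      refine hI.2 ⟨Z.mul_mem hwZ (Z.inv_mem h0), ?_⟩
      have h22 : f ^ 2 * f ^ 2 = 1 := by rw [← pow_add]; exact hf4
      have h22' : (f ^ 2)⁻¹ = f ^ 2 := inv_eq_of_mul_eq_one_left h22
      calc f ^ 2 * (w * (f ^ 2 * w * (f ^ 2)⁻¹)⁻¹) * (f ^ 2)⁻¹
          = (f ^ 2 * w * (f ^ 2)⁻¹) * ((f ^ 2 * f ^ 2) * w⁻¹ * (f ^ 2 * f ^ 2)⁻¹) := by group
        _ = (f ^ 2 * w * (f ^ 2)⁻¹) * w⁻¹ := by rw [h22]; group
        _ = (w * (f ^ 2 * w * (f ^ 2)⁻¹)⁻¹)⁻¹ := by group
    rw [h, mem_bot, mul_inv_eq_one] at h1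
    exact htw (by
      calc f ^ 2 * w = f ^ 2 * w * (f ^ 2)⁻¹ * f ^ 2 := by group
        _ = w * f ^ 2 := by rw [← h1])
  have hat : Commute a (f ^ 2) := (show Commute a f from haf).pow_right 2
  have hap : IsPGroup 7 (zpowers a) := IsPGroup.of_card (n := 1) (by rw [Nat.card_zpowers, ha, pow_one])
  obtain ⟨c0, hc0, hc01, hc0a⟩ := exists_fixed (p := 7) hap (h7 hIp hI1) (by
    rintro _ ⟨i, rfl⟩ x hx
    have h1 : Commute (a ^ i) (f ^ 2) := hat.zpow_left i
    refine hI.2 ⟨hZn.conj_mem x hx.1 _, ?_⟩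
    have h2 : f ^ 2 * x * (f ^ 2)⁻¹ = x⁻¹ := hx.2
    calc f ^ 2 * (a ^ i * x * (a ^ i)⁻¹) * (f ^ 2)⁻¹
        = (f ^ 2 * a ^ i) * x * (f ^ 2 * a ^ i)⁻¹ := by group
      _ = (a ^ i * f ^ 2) * x * (a ^ i * f ^ 2)⁻¹ := by rw [h1.eq]
      _ = a ^ i * (f ^ 2 * x * (f ^ 2)⁻¹) * (a ^ i)⁻¹ := by group
      _ = a ^ i * x⁻¹ * (a ^ i)⁻¹ := by rw [h2]
      _ = (a ^ i * x * (a ^ i)⁻¹)⁻¹ := by group)
  obtain ⟨m, hm⟩ := exists_pow_order hIp hc0 hc01
  obtain ⟨c, hcd⟩ : ∃ c, c = c0 ^ m := ⟨_, rfl⟩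
  have hc : orderOf c = 7 := hcd ▸ hm
  have hcI : c ∈ I := hcd ▸ I.pow_mem hc0 m
  have hac : Commute a c := by
    rw [hcd]
    exact (show Commute a c0 from hc0a a (mem_zpowers a)).pow_right m
  have hcinv : f ^ 2 * c * (f ^ 2)⁻¹ = c⁻¹ := (hI.1 hcI).2
  obtain ⟨d, hdd⟩ : ∃ d, d = f * c * f⁻¹ := ⟨_, rfl⟩
  have hd : orderOf d = 7 := by
    rw [hdd, ← hc]
    exact orderOf_injective (MulAut.conj f).toMonoidHom (MulAut.conj f).injective c
  have hdZ : d ∈ Z := hdd ▸ hZn.conj_mem c hcI.1 f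
  have hfd : f * d * f⁻¹ = c⁻¹ := by
    rw [hdd, ← hcinv, pow_two]
    group
  have hdinv : f ^ 2 * d * (f ^ 2)⁻¹ = d⁻¹ := by
    calc f ^ 2 * d * (f ^ 2)⁻¹ = f * (f * d * f⁻¹) * f⁻¹ := by rw [pow_two]; group
      _ = f * c⁻¹ * f⁻¹ := by rw [hfd]
      _ = (f * c * f⁻¹)⁻¹ := by group
      _ = d⁻¹ := by rw [← hdd]
  have had : Commute a d := by
    rw [hdd]
    have h1 : Commute a f := haf
    exact (h1.mul_right hac).mul_right h1.inv_right
  have hcd' : c * d = d * c := hZc c hcI.1 d hdZ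
  have hdc : d ∉ zpowers c := by
    rintro ⟨i, hi⟩
    have h1 : c ^ i = d := hi
    have h2 : c ^ (i * i) = c ^ (-1 : ℤ) := by
      calc c ^ (i * i) = (c ^ i) ^ i := zpow_mul c i i
        _ = (f * c * f⁻¹) ^ i := by rw [h1, hdd]
        _ = f * c ^ i * f⁻¹ := conj_zpow
        _ = f * d * f⁻¹ := by rw [h1]
        _ = c ^ (-1 : ℤ) := by rw [hfd, zpow_neg_one]
    rw [zpow_eq_zpow_iff_modEq, hc] at h2
    have h3 : ((i * i : ℤ) : ZMod 7) = ((-1 : ℤ) : ZMod 7) := (ZMod.intCast_eq_intCast_iff _ _ 7).2 h2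
    push_cast at h3
    revert h3
    generalize (i : ZMod 7) = x
    revert x
    decide
  obtain ⟨i, j, hij⟩ := three S.na hc hd ha hcd' hac.symm.eq had.symm.eq hdc
  have h1 : f ^ 2 * a * (f ^ 2)⁻¹ = a⁻¹ := by
    rw [hij]
    have h2 : Commute (c ^ i) (d ^ j) := (show Commute c d from hcd').zpow_zpow i j
    calc f ^ 2 * (c ^ i * d ^ j) * (f ^ 2)⁻¹
        = (f ^ 2 * c ^ i * (f ^ 2)⁻¹) * (f ^ 2 * d ^ j * (f ^ 2)⁻¹) := by group
      _ = (f ^ 2 * c * (f ^ 2)⁻¹) ^ i * (f ^ 2 * d * (f ^ 2)⁻¹) ^ j := by rw [conj_zpow, conj_zpow]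
      _ = (c ^ i)⁻¹ * (d ^ j)⁻¹ := by rw [hcinv, hdinv, inv_zpow, inv_zpow]
      _ = (d ^ j * c ^ i)⁻¹ := by group
      _ = (c ^ i * d ^ j)⁻¹ := by rw [h2.eq]
  have h2 : f ^ 2 * a * (f ^ 2)⁻¹ = a := by
    rw [← hat.eq]
    group
  have h3 : a ^ 2 = 1 := by
    rw [h2] at h1
    rw [pow_two]
    nth_rewrite 1 [h1]
    group
  have h4 := orderOf_dvd_of_pow_eq_one h3
  rw [ha] at h4
  norm_num at h4

/-- **the simple normal subgroup** -/
theorem exists_simple (S : KSit K) :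
    ∃ T : Subgroup K, T.Normal ∧ IsSimpleGroup ↥T ∧ ¬ IsMulCommutative ↥T ∧ centralizer (T : Set K) = ⊥ ∧
      7 ∣ Nat.card T := by
  have hO' := S.prime_core
  have hO := S.p_core
  have hF : fittingSubgroup K = ⊥ := by
    have h1 := SignalizersComponents.CompOrbit.fittingSubgroup_le_pCore (p := 7) hO'
    rw [hO] at h1
    exact le_bot_iff.1 h1
  have hlay : generalizedFittingSubgroup K = layer K := by
    rw [Lib.GenFitting.genFitting_def, hF, sup_bot_eq]
  have hdc : ∀ {K' : Subgroup K}, IsComponent K' → 7 ∣ Nat.card K' := fun hK => H233.Simple.dvd_card_component hO' hK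
  -- there is a component
  obtain ⟨T, hT⟩ : ∃ K' : Subgroup K, IsComponent K' := by
    by_contra hc
    push Not at hc
    have h1 : layer K = ⊥ := by
      rw [← le_bot_iff, layer_le_iff]
      intro K' hK
      exact absurd hK (hc K')
    have h2 := Lib.GenFitting.centralizer_genFitting_le (G := K)
    rw [hlay, h1] at h2
    have h3 : (⊤ : Subgroup K) ≤ ⊥ := by
      refine le_trans ?_ h2
      intro g _
      rw [mem_centralizer_iff]
      intro x hx
      rw [SetLike.mem_coe, mem_bot] at hx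
      rw [hx, one_mul, mul_one]
    have h4 : Nat.card K = 1 := by
      rw [← Subgroup.card_top, le_bot_iff.1 h3, Subgroup.card_bot]
    have h5 := S.d343
    rw [h4] at h5
    norm_num at h5
  -- the centre of a component is trivial
  have hcen : ∀ {J : Subgroup K}, IsComponent J → ∀ z ∈ J, (∀ k ∈ J, z * k = k * z) → z = 1 := by
    intro J hJ z hz hzc
    have h1 : z ∈ centralizer (layer K : Set K) := by
      have h2 : layer K ≤ centralizer ({z} : Set K) := by
        rw [layer_le_iff]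
        intro J' hJ'
        by_cases hJK : J' = J
        · intro j hj
          rw [mem_centralizer_iff]
          rintro _ rfl
          exact hzc j (hJK ▸ hj)
        · refine (component_le_centralizer_of_ne hJ' hJ hJK).trans (Subgroup.centralizer_le ?_)
          rw [Set.singleton_subset_iff]
          exact hz
      rw [mem_centralizer_iff]
      intro j hj
      exact (mem_centralizer_iff.1 (h2 hj) z rfl).symm
    have h3 := SignalizersComponents.CompOrbit.inf_centralizer_self_le_pCore (p := 7) (N := layer K) hO' (layer_normal K)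
    rw [hO, le_bot_iff] at h3
    have h4 : z ∈ layer K ⊓ centralizer (layer K : Set K) := ⟨component_le_layer hJ hz, h1⟩
    rw [h3, mem_bot] at h4
    exact h4
  -- elements of order 7 of components
  have ho : ∀ {J : Subgroup K}, IsComponent J → ∃ x ∈ J, orderOf x = 7 := by
    intro J hJ
    obtain ⟨⟨y, hyT⟩, hy⟩ := exists_prime_orderOf_dvd_card' (G := J) 7 (hdc hJ)
    rw [Subgroup.orderOf_mk] at hy
    exact ⟨y, hyT, hy⟩
  -- the center of a Sylow subgroup
  have hL : ∀ {J P : Subgroup K} {w x : K}, IsComponent J → orderOf w = 7 → (∀ g ∈ P, g * w = w * g) →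
      (∀ g ∈ P, ∀ h ∈ P, ∃ k : ℤ, g * h * g⁻¹ = h * w ^ k) →
      (∀ h ∈ P, (∀ g ∈ P, g * h = h * g) → h ∈ zpowers w) → x ∈ J → x ∈ P → orderOf x = 7 → w ∈ J := by
    intro J P w x hJ hw hwc hPc hPz hxJ hxP hx
    have hx1 : x ≠ 1 := by
      rintro rfl
      rw [orderOf_one] at hx
      norm_num at hx
    by_cases hxc : ∀ g ∈ P, g * x = x * g
    · obtain ⟨i, hi⟩ := mem_zpowers_iff.1 (hPz x hxP hxc)
      have h1 : zpowers x = zpowers w := by
        apply Subgroup.eq_of_le_of_card_ge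
        · rw [zpowers_le]; exact hPz x hxP hxc
        · rw [Nat.card_zpowers, Nat.card_zpowers, hx, hw]
      have h2 : w ∈ zpowers x := by rw [h1]; exact mem_zpowers w
      exact (zpowers_le.2 hxJ) h2
    · push Not at hxc
      obtain ⟨g, hg, hgx⟩ := hxc
      obtain ⟨k, hk⟩ := hPc g hg x hxP
      have hk0 : ¬ ((7 : ℕ) : ℤ) ∣ k := by
        intro h
        apply hgx
        rw [(orderOf_dvd_iff_zpow_eq_one (x := w)).1 (by rw [hw]; exact h), mul_one] at hk
        exact mul_inv_eq_iff_eq_mul.1 hk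
      have hgw : Commute g w := hwc g hg
      have hxw : Commute x w := hwc x hxP
      have hk' : g⁻¹ * x * g = x * w ^ (-k) := by
        have h1 : g * (x * w ^ (-k)) * g⁻¹ = x := by
          calc g * (x * w ^ (-k)) * g⁻¹ = g * x * (w ^ (-k) * g⁻¹) := by group
            _ = g * x * (g⁻¹ * w ^ (-k)) := by rw [((hgw.zpow_right (-k)).inv_left).eq]
            _ = (g * x * g⁻¹) * w ^ (-k) := by group
            _ = x * (w ^ k * w ^ (-k)) := by rw [hk, mul_assoc]
            _ = x := by rw [← zpow_add, add_neg_cancel, zpow_zero, mul_one]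
        calc g⁻¹ * x * g = g⁻¹ * (g * (x * w ^ (-k)) * g⁻¹) * g := by rw [h1]
          _ = _ := by group
      have hcomp : ∀ (u : K) (l : ℤ), u * x * u⁻¹ = x * w ^ l → J.map (MulAut.conj u).toMonoidHom ≠ J →
          ∀ j ∈ J, (x * w ^ l) * j = j * (x * w ^ l) := by
        intro u l hu hne j hj
        have h1 : x * w ^ l ∈ J.map (MulAut.conj u).toMonoidHom := ⟨x, hxJ, hu⟩
        exact (mem_centralizer_iff.1 (component_le_centralizer_of_ne (isComponent_conj u hJ) hJ hne h1) j hj).symm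
      by_cases hgJ : J.map (MulAut.conj g).toMonoidHom = J
      · have h1 : x * w ^ k ∈ J := by
          rw [← hgJ]
          exact ⟨x, hxJ, hk⟩
        have h2 : w ^ k ∈ J := by
          have := J.mul_mem (J.inv_mem hxJ) h1
          rwa [inv_mul_cancel_left] at this
        have h3 : zpowers (w ^ k) = zpowers w := by
          apply Subgroup.eq_of_le_of_card_ge
          · rw [zpowers_le]; exact ⟨k, rfl⟩
          · rw [Nat.card_zpowers, Nat.card_zpowers, hw]
            have h4 : orderOf (w ^ k) ∣ 7 := by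
              rw [← hw]; exact orderOf_dvd_of_mem_zpowers ⟨k, rfl⟩
            rcases (Nat.dvd_prime (by norm_num)).1 h4 with h | h
            · exfalso
              apply hk0
              have h5 := (orderOf_dvd_iff_zpow_eq_one (x := w)).2 (orderOf_eq_one_iff.1 h)
              rwa [hw] at h5
            · rw [h]
        have h4 : w ∈ zpowers (w ^ k) := by rw [h3]; exact mem_zpowers w
        exact (zpowers_le.2 h2) h4
      · exfalso
        have hgJ' : J.map (MulAut.conj g⁻¹).toMonoidHom ≠ J := by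
          intro h
          apply hgJ
          rw [← h]
          ext z
          constructor
          · rintro ⟨_, ⟨y, hy, rfl⟩, rfl⟩
            have h1 : (MulAut.conj g).toMonoidHom ((MulAut.conj g⁻¹).toMonoidHom y) = y := by
              show g * (g⁻¹ * y * g⁻¹⁻¹) * g⁻¹ = y
              group
            rw [h1, h]
            exact hy
          · intro hz
            rw [h] at hz
            refine ⟨g⁻¹ * z * g⁻¹⁻¹, ⟨z, hz, rfl⟩, ?_⟩
            show g * (g⁻¹ * z * g⁻¹⁻¹) * g⁻¹ = z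
            group
        have h1 := hcomp g k hk hgJ
        have h2 := hcomp g⁻¹ (-k) (by rw [inv_inv]; exact hk') hgJ'
        apply hx1
        apply hcen hJ x hxJ
        intro j hj
        have h3 : Commute (x * w ^ k) j := h1 j hj
        have h4 : Commute (x * w ^ (-k)) j := h2 j hj
        have h5 : (x * w ^ (-k))⁻¹ * (x * w ^ k) = w ^ (2 * k) := by
          calc (x * w ^ (-k))⁻¹ * (x * w ^ k) = w ^ k * w ^ k := by group
            _ = _ := by rw [← zpow_add]; ring_nf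
        have h6 : Commute (w ^ (2 * k)) j := by
          rw [← h5]
          exact h4.inv_left.mul_left h3
        have h2k : ¬ ((7 : ℕ) : ℤ) ∣ 2 * k := by omega
        have h7 : Commute w j := (comm_of_zpow hw h2k h6.symm.eq).symm
        have h8 : Commute x j := by
          have h9 : x = (x * w ^ k) * (w ^ k)⁻¹ := by group
          rw [h9]
          exact h3.mul_left ((h7.zpow_left k).inv_left)
        exact h8
  -- the component is unique
  have key : ∀ {J L : Subgroup K}, IsComponent J → IsComponent L → J = L := by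
    intro J L hJ hLc
    by_contra hne
    obtain ⟨x, hxJ, hx⟩ := ho hJ
    obtain ⟨y, hyL, hy⟩ := ho hLc
    have hJL : ∀ a ∈ J, ∀ b ∈ L, a * b = b * a := by
      intro a ha b hb
      exact ((mem_centralizer_iff.1 (component_le_centralizer_of_ne hJ hLc hne ha)) b hb).symm
    have hyx : y ∉ zpowers x := by
      intro h
      have h1 : y ∈ J := (zpowers_le.2 hxJ) h
      have h2 : y = 1 := hcen hLc y hyL (fun k hk => hJL y h1 k hk)
      rw [h2, orderOf_one] at hy
      norm_num at hy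
    obtain ⟨A, -, hA2, hA3⟩ := pair hx hy (hJL x hxJ y hyL) hyx
    have hAp : IsPGroup 7 A := IsPGroup.of_card hA2
    obtain ⟨P, hAP⟩ := hAp.exists_le_sylow
    have hxP : x ∈ (P : Subgroup K) := hAP ((hA3 x).2 ⟨1, 0, by simp⟩)
    have hyP : y ∈ (P : Subgroup K) := hAP ((hA3 y).2 ⟨0, 1, by simp⟩)
    obtain ⟨w, hwP, hw, hwc, hPc, hPz⟩ := exists_center S.na (S.card_sylow P)
    have h1 : w ∈ J := hL hJ hw hwc hPc hPz hxJ hxP hx
    have h2 : w ∈ L := hL hLc hw hwc hPc hPz hyL hyP hy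
    have h3 : w = 1 := hcen hJ w h1 (fun k hk => (hJL k hk w h2).symm)
    rw [h3, orderOf_one] at hw
    norm_num at hw
  have hlT : layer K = T := by
    apply le_antisymm
    · rw [layer_le_iff]
      intro J hJ
      rw [key hJ hT]
    · exact component_le_layer hT
  have hTn : T.Normal := by
    rw [← hlT]
    exact layer_normal K
  have hTc : centralizer (T : Set K) = ⊥ := by
    have h1 := Lib.GenFitting.centralizer_genFitting_le (G := K)
    rw [hlay, hlT] at h1
    rw [eq_bot_iff]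
    intro z hz
    rw [mem_bot]
    apply hcen hT z (h1 hz)
    intro k hk
    exact (mem_centralizer_iff.1 hz k hk).symm
  refine ⟨T, hTn, ?_, quasisimple_not_isMulCommutative hT.2, hTc, hdc hT⟩
  have hc : center ↥T = ⊥ := by
    rw [eq_bot_iff]
    intro z hz
    rw [mem_bot]
    apply Subtype.ext
    apply hcen hT z z.2
    intro k hk
    exact (congrArg Subtype.val (mem_center_iff.1 hz ⟨k, hk⟩)).symm
  have h3 := hT.2.2
  have e : ↥T ⧸ center ↥T ≃* ↥T := (QuotientGroup.quotientMulEquivOfEq hc).trans QuotientGroup.quotientBot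
  have : Nontrivial ↥T := quasisimple_nontrivial hT.2
  exact IsSimpleGroup.isSimpleGroup_of_surjective e.toMonoidHom e.surjective

end KSit

end Cfsg.Agent.H725.CovHe
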